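import Mathlib
import Cfsg.Prelude.Def_LieExceptional
import Cfsg.Prelude.Def_Exceptional
import Cfsg.Agent.SuzId.ZasHyp
import Cfsg.Agent.H37.FNI
import Cfsg.Agent.H37.ZSimple
import Cfsg.Agent.H37.ZMain
import Cfsg.Agent.H34.Sharp3PGL
import Cfsg.Agent.BR.Ident

/-!
Simple Zassenhaus groups: `PSL(2, F)` or Suzuki order.
-/

set_option autoImplicit false

namespace Cfsg.Agent.SuzId

open Cfsg Cfsg.Agent.H34 Cfsg.Agent.H37.ZT MulAction

universe u v

/-- `PGL(2, F) ≅ PSL(2, F)` for `|F|` even. -/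
theorem pgl_equiv_psl {F : Type} [Field F] [Fintype F] (hF : Even (Fintype.card F)) :
    Nonempty (Matrix.ProjGenLinGroup (Fin 2) F ≃* Matrix.ProjectiveSpecialLinearGroup (Fin 2) F) := by
  classical
  have h2 : (2 : F) = 0 := by
    obtain ⟨q, hqc, n, hq, hqn⟩ := FiniteField.card' F
    have h1 : 2 ∣ q := by
      rw [hqn] at hF
      exact (Nat.even_pow.1 hF).1.two_dvd
    have h2 : q = 2 := ((Nat.prime_dvd_prime_iff_eq Nat.prime_two hq).mp h1).symm
    subst h2
    exact_mod_cast CharP.cast_eq_zero F 2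
  obtain ⟨q, hqc, n, hq, hqn⟩ := FiniteField.card' F
  have hq2 : q = 2 := by
    have h1 : 2 ∣ q := by
      rw [hqn] at hF
      exact (Nat.even_pow.1 hF).1.two_dvd
    exact ((Nat.prime_dvd_prime_iff_eq Nat.prime_two hq).mp h1).symm
  subst hq2
  obtain ⟨e⟩ := Cfsg.Agent.BR.sl_equiv_pgl (F := F) hqn
  have hcen : Subgroup.center (Matrix.SpecialLinearGroup (Fin 2) F) = ⊥ := by
    rw [eq_bot_iff]
    intro x hx
    rw [Matrix.SpecialLinearGroup.mem_center_iff] at hx
    obtain ⟨r, hr, h⟩ := hx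
    rw [Fintype.card_fin] at hr
    have hr1 : r = 1 := by
      have h4 : (r - 1) * (r - 1) = 0 := by
        linear_combination hr - (r - 1) * h2
      exact sub_eq_zero.mp (mul_self_eq_zero.mp h4)
    rw [Subgroup.mem_bot]
    apply Subtype.ext
    rw [← h, hr1]
    simp
  have hinj : Function.Injective (QuotientGroup.mk' (Subgroup.center (Matrix.SpecialLinearGroup (Fin 2) F))) := by
    rw [← MonoidHom.ker_eq_bot_iff, QuotientGroup.ker_mk', hcen]
  let e' : Matrix.SpecialLinearGroup (Fin 2) F ≃* Matrix.ProjectiveSpecialLinearGroup (Fin 2) F :=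
    MulEquiv.ofBijective _ ⟨hinj, QuotientGroup.mk'_surjective _⟩
  exact ⟨e.symm.trans e'⟩

theorem zas_class {G : Type u} {Ω : Type v} [Group G] [MulAction G Ω] [Finite G] [Finite Ω] [IsSimpleGroup G]
    (hZ : IsZassenhausGroup G Ω) :
    (∃ (F : Type) (_ : Field F) (_ : Fintype F), Nonempty (G ≃* Matrix.ProjectiveSpecialLinearGroup (Fin 2) F)) ∨
      IsSuzuki G := by
  classical
  have hfG : Fintype G := Fintype.ofFinite G
  have hz := zgp_of hZ
  obtain ⟨g0, hg0, a, b, hab, hga, hgb⟩ := hZ.2.2.2.1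
  rcases Nat.even_or_odd (Nat.card (stab2 G a b)) with he | he
  · obtain ⟨-, -, K, iK, iF, -, hK, hiso⟩ := simple_even hZ hab he
    exact Or.inl ⟨K, iK, iF, hiso⟩
  · obtain ⟨U, hU⟩ := exists_isKer hz hab (fun hb => hg0 (by
      have : g0 ∈ stab2 G a b := mem_stab2.2 ⟨hga, hgb⟩
      rw [hb] at this
      exact this))
    have h2 : 0 < Nat.card Ω := Nat.card_pos_iff.2 ⟨⟨a⟩, inferInstance⟩
    obtain ⟨hzn, he2, hn2⟩ := zn_of_simple hZ hab hU (n := Nat.card Ω - 1) (by omega) rfl he
    rcases hzn.abelian_or_two he2 hn2 with hc | ⟨h1, h3, -⟩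
    · rcases zass_abelian hZ hab hU hc with h4 | ⟨-, K, iK, iF, -, -, hiso⟩
      · left
        rcases Nat.even_or_odd (Nat.card Ω) with hΩ | hΩ
        · exfalso
          exact not_simple_sharp hz hab hΩ (by omega) h4 inferInstance
        · obtain ⟨h5, h6⟩ := stab2_third hz hab h4
          have hS := sharp3_of h5 h6
          obtain ⟨c, hca, hcb⟩ : ∃ c : Ω, c ≠ a ∧ c ≠ b := by
            by_contra hcon
            push_neg at hcon
            have h7 : Nat.card Ω ≤ 2 := by
              letI := Fintype.ofFinite Ω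
              rw [Nat.card_eq_fintype_card, ← Finset.card_univ]
              calc (Finset.univ : Finset Ω).card ≤ ({a, b} : Finset Ω).card := Finset.card_le_card (by
                    intro x _
                    by_cases hx : x = a
                    · simp [hx]
                    · simp [hcon x hx])
                _ ≤ 2 := Finset.card_le_two
            omega
          obtain ⟨F, iF, iFt, hF, ⟨e⟩⟩ := hS.iso_pgl_even hab (Ne.symm hcb) (Ne.symm hca) hΩ
          obtain ⟨e'⟩ := pgl_equiv_psl (F := F) (by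
            rw [hF]
            obtain ⟨k, hk⟩ := hΩ
            exact ⟨k, by omega⟩)
          exact ⟨F, iF, iFt, ⟨e.trans e'⟩⟩
      · exact Or.inl ⟨K, iK, iF, hiso⟩
    · right
      refine zas_suzuki hZ a U hU.le hU.norm hU.reg h1 ?_
      by_contra hcon
      push_neg at hcon
      apply h3
      exact ⟨⟨fun x y => Subtype.ext (hcon x x.2 y y.2)⟩⟩

end Cfsg.Agent.SuzId
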